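import Cfsg.Agent.H127.Co3.Glue8F
import Cfsg.Agent.H736.Co3.D8

/-!
# S1920, `E8(q)`, `z` of type `D8` : `TabI` for the involution `z8` of helper736 (helper127)
-/

set_option autoImplicit false

open Module Matrix

namespace Cfsg.Agent.H127.Co3

open Cfsg.Lie Cfsg.Agent.H64.Co3 Cfsg.Agent.H13.Co3 Cfsg.Agent.H736.Co3

/-- **GLUE8 for `z8`** -/
theorem tabI_z8 {F : Type} [Field F] [Fintype F] (h2 : (2 : F) ≠ 0) {P N0 : Subgroup ↥(chevE8.group F)}
    {s : ↥(chevE8.group F)} {ψ : ↥(Subgroup.normalizer (P : Set ↥(chevE8.group F))) →* Equiv.Perm (Fin 6)}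
    (C : CB P N0 (z8 F) s ψ) :
    TabI N0 (LieClassical.OrthForms.plusForm T8.m F) (z8 F) (R8 (F := F)) :=
  tabI_Rl h2 C (hz8 h2)

end Cfsg.Agent.H127.Co3
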